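import Mathlib
import Cfsg.Agent.BLK.FSReal
import Cfsg.Agent.CHAR.RepEquiv
import Cfsg.Agent.CHAR.Galois
import Cfsg.Prelude.Def_Blocks

set_option autoImplicit false
set_option linter.unusedSectionVars false
set_option linter.unusedSimpArgs false
set_option linter.unusedVariables false

open Cfsg Matrix CL.Char CL.Blk
open scoped Kronecker

namespace CL.OD.Gd92

variable {G : Type*} [Group G] [Fintype G]

theorem deg_eq {n : ℕ} (τ : Representation ℂ G (Fin n → ℂ)) : charDegree τ.character = n := by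
  simp [charDegree, Representation.char_one]

theorem ex_rep (χ : IrrCharacter G) :
    ∃ ρ : Representation ℂ G (Fin (charDegree χ.1) → ℂ), ρ.IsIrreducible ∧ ρ.character = χ.1 := by
  obtain ⟨χ, n, ρ, h, rfl⟩ := χ
  have := deg_eq ρ
  show ∃ ρ' : Representation ℂ G (Fin (charDegree ρ.character) → ℂ), _ ∧ _ = ρ.character
  generalize charDegree ρ.character = m at this
  subst this
  exact ⟨ρ, h, rfl⟩

theorem cross {m n : ℕ} (ρ : Representation ℂ G (Fin m → ℂ)) (τ : Representation ℂ G (Fin n → ℂ))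
    [ρ.IsIrreducible] [τ.IsIrreducible] (h : ρ.character ≠ τ.character) (i j : Fin m)
    (k l : Fin n) : ∑ g, repMat ρ g i j * repMat τ g⁻¹ l k = 0 := by
  set S : Matrix (Fin m) (Fin n) ℂ := ∑ g, repMat ρ g * single j l (1 : ℂ) * repMat τ g⁻¹ with hS
  have h1 : ∀ x, S * repMat τ x = repMat ρ x * S := by
    intro x
    rw [hS, Matrix.sum_mul, Matrix.mul_sum]
    symm
    refine Fintype.sum_equiv (Equiv.mulLeft x) _ _ fun g => ?_
    simp only [Equiv.coe_mulLeft, Matrix.mul_assoc, ← repMat_mul]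
    rw [repMat_mul ρ x g, Matrix.mul_assoc]
    congr 4
    group
  let F : τ.IntertwiningMap ρ := ⟨Matrix.toLin' S, fun g => by
    apply LinearMap.toMatrix'.injective
    simp only [LinearMap.toMatrix'_comp, LinearMap.toMatrix'_toLin']
    exact h1 g⟩
  rcases Representation.IsIrreducible.bijective_or_eq_zero F with hb | h0
  · exact absurd (Representation.char_iso (Representation.Equiv.mk
      (LinearEquiv.ofBijective F.toLinearMap hb) F.isIntertwining')).symm h
  · have h2 : S = 0 := by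
      have : Matrix.toLin' S = 0 := congrArg (·.toLinearMap) h0
      simpa using this
    have h3 := congrFun (congrFun h2 i) k
    rw [hS, Matrix.sum_apply, Matrix.zero_apply] at h3
    rw [← h3]
    refine Finset.sum_congr rfl fun g _ => ?_
    rw [Matrix.mul_apply, Finset.sum_eq_single l]
    · rw [Matrix.mul_single_apply_same, mul_one]
    · intro x _ hx
      rw [Matrix.mul_single_apply_of_ne _ _ _ _ _ hx, zero_mul]
    · simp

theorem conjB {m n : ℕ} (ρ : Representation ℂ G (Fin m → ℂ)) (τ : Representation ℂ G (Fin n → ℂ))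
    (σ : ℂ ≃+* ℂ) (h : ∀ g, τ.character g = σ (ρ.character g)) (hmn : m = n) :
    ∃ B B' : Matrix (Fin m) (Fin m) ℂ, B * B' = 1 ∧ ∀ g, (repMat ρ g).map σ =
      B * (repMat τ g).submatrix (Fin.cast hmn) (Fin.cast hmn) * B' := by
  subst hmn
  let ρ' : Representation ℂ G (Fin m → ℂ) :=
    { toFun := fun g => Matrix.toLin' ((repMat ρ g).map σ)
      map_one' := by rw [repMat_one, Matrix.map_one _ (map_zero σ) (map_one σ), toLin'_one]; rfl
      map_mul' := fun g h => by rw [repMat_mul, Matrix.map_mul, toLin'_mul]; rfl }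
  have hc : τ.character = ρ'.character := by
    funext g
    rw [h g]
    show σ (LinearMap.trace ℂ _ (ρ g)) = LinearMap.trace ℂ _ (Matrix.toLin' _)
    rw [Matrix.trace_toLin'_eq, ← Matrix.toLin'_toMatrix' (ρ g), Matrix.trace_toLin'_eq]
    simp [Matrix.trace, repMat]
  obtain ⟨φ⟩ := nonempty_equiv_of_character_eq τ ρ' hc
  have hB : LinearMap.toMatrix' φ.toLinearEquiv.toLinearMap *
      LinearMap.toMatrix' φ.toLinearEquiv.symm.toLinearMap = 1 := by
    rw [← LinearMap.toMatrix'_comp, LinearEquiv.comp_symm, LinearMap.toMatrix'_id]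
  refine ⟨_, _, hB, fun g => ?_⟩
  have h1 := congrArg LinearMap.toMatrix' (φ.toIntertwiningMap.isIntertwining' g)
  simp only [LinearMap.toMatrix'_comp] at h1
  have h2 : LinearMap.toMatrix' (ρ' g) = (repMat ρ g).map σ := LinearMap.toMatrix'_toLin' _
  rw [h2] at h1
  have h3 : (repMat τ g).submatrix (Fin.cast rfl) (Fin.cast rfl) = LinearMap.toMatrix' (τ g) := rfl
  rw [h3]
  erw [h1]
  rw [Matrix.mul_assoc]
  erw [hB]
  rw [Matrix.mul_one]

section L
variable {ι : Type*} [Fintype ι] [DecidableEq ι] {n : ι → ℕ}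

/-- Left multiplication on all blocks. -/
noncomputable def L (M : ∀ i, Matrix (Fin (n i)) (Fin (n i)) ℂ) :
    Matrix (Σ i, Fin (n i) × Fin (n i)) (Σ i, Fin (n i) × Fin (n i)) ℂ :=
  blockDiagonal' fun i => M i ⊗ₖ (1 : Matrix (Fin (n i)) (Fin (n i)) ℂ)

theorem L_mul {κ : Type*} (M : ∀ i, Matrix (Fin (n i)) (Fin (n i)) ℂ)
    (Y : Matrix (Σ i, Fin (n i) × Fin (n i)) κ ℂ) (c : ι) (i j : Fin (n c)) (b : κ) :
    (L M * Y) ⟨c, (i, j)⟩ b = ∑ k, M c i k * Y ⟨c, (k, j)⟩ b := by
  rw [Matrix.mul_apply, Fintype.sum_sigma, Finset.sum_eq_single c]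
  · simp [L, Fintype.sum_prod_type, Matrix.one_apply]
  · intro c' _ hc
    simp [L, blockDiagonal'_apply_ne _ _ _ hc.symm]
  · simp

theorem L_det (B B' : ∀ i, Matrix (Fin (n i)) (Fin (n i)) ℂ) (h : ∀ i, B i * B' i = 1) :
    (L B).det * (L fun i => (B' i)ᵀ).det = 1 := by
  have h1 : (L fun i => (B' i)ᵀ) = (L B')ᵀ := by
    rw [L, L, blockDiagonal'_transpose]
    congr 1
    funext i
    rw [← kroneckerMap_transpose, transpose_one]
  rw [h1, det_transpose, ← det_mul, L, L, ← blockDiagonal'_mul]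
  simp only [← mul_kronecker_mul, h, Matrix.mul_one, one_kronecker_one]
  erw [blockDiagonal'_one, det_one]

/-- Swap of the two matrix indices. -/
def sw : Equiv.Perm (Σ i, Fin (n i) × Fin (n i)) := Equiv.sigmaCongrRight fun _ => Equiv.prodComm _ _

theorem I_ext {a b : Σ i, Fin (n i) × Fin (n i)} (h : a.1 = b.1) (h1 : (a.2.1 : ℕ) = b.2.1)
    (h2 : (a.2.2 : ℕ) = b.2.2) : a = b := by
  obtain ⟨c, i, j⟩ := a
  obtain ⟨c', i', j'⟩ := b
  dsimp only at h h1 h2
  subst h
  rw [Fin.ext h1, Fin.ext h2]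

theorem sgn_sq {α : Type*} [Fintype α] [DecidableEq α] (s : Equiv.Perm α) :
    ((Equiv.Perm.sign s : ℤ) : ℂ) = 1 ∨ ((Equiv.Perm.sign s : ℤ) : ℂ) = -1 := by
  rcases Int.units_eq_one_or (Equiv.Perm.sign s) with h | h <;> simp [h]

end L

omit [Fintype G] in
theorem gdet (G : Type*) [Group G] [Finite G] : ∃ d : ℂ,
    (d ^ 2 = ∏ᶠ χ : IrrCharacter G, ((Nat.card G : ℂ) / charDegree χ.1) ^ (charDegree χ.1 ^ 2) ∨
      d ^ 2 = -∏ᶠ χ : IrrCharacter G, ((Nat.card G : ℂ) / charDegree χ.1) ^ (charDegree χ.1 ^ 2)) ∧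
    ∀ σ : ℂ ≃+* ℂ, (∀ (χ : IrrCharacter G) g, σ (σ (χ.1 g)) = χ.1 g) →
      σ d = (-1) ^ (Nat.card {χ : IrrCharacter G //
        ¬ 2 ∣ charDegree χ.1 ∧ ¬ ∀ g, σ (χ.1 g) = χ.1 g} / 2) * d := by
  classical
  let _ := Fintype.ofFinite G
  choose ρ hρ hχ using ex_rep (G := G)
  set n : IrrCharacter G → ℕ := fun χ => charDegree χ.1 with hn
  have hn1 : ∀ χ : IrrCharacter G, χ.1 1 = n χ := fun χ => by
    rw [← hχ χ, Representation.char_one]; simp [hn, hχ]
  have hcard : Fintype.card (Σ χ, Fin (n χ) × Fin (n χ)) = Fintype.card G := by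
    have := sum_degree_sq (G := G)
    simp only [hn1, Nat.card_eq_fintype_card] at this
    simp only [Fintype.card_sigma, Fintype.card_prod, Fintype.card_fin, ← sq]
    exact_mod_cast this
  let e := Fintype.equivOfCardEq hcard
  let D : Matrix (Σ χ, Fin (n χ) × Fin (n χ)) (Σ χ, Fin (n χ) × Fin (n χ)) ℂ :=
    fun a b => repMat (ρ a.1) (e b) a.2.1 a.2.2
  refine ⟨D.det, ?_, fun σ hσ => ?_⟩
  · let iv : Equiv.Perm (Σ χ, Fin (n χ) × Fin (n χ)) := (e.trans (Equiv.inv G)).trans e.symm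
    have h1 : D * ((D.submatrix sw id).submatrix id iv)ᵀ =
        diagonal fun a => (Nat.card G : ℂ) / n a.1 := by
      ext ⟨χ, i, j⟩ ⟨ψ, k, l⟩
      have : (D * ((D.submatrix sw id).submatrix id iv)ᵀ) ⟨χ, i, j⟩ ⟨ψ, k, l⟩ =
          ∑ g, repMat (ρ χ) g i j * repMat (ρ ψ) g⁻¹ l k := by
        rw [Matrix.mul_apply]
        refine Fintype.sum_equiv e _ _ fun b => ?_
        show _ * repMat (ρ ψ) (e (e.symm (e b)⁻¹)) l k = _
        rw [Equiv.apply_symm_apply]
      rw [this]
      have := hρ χ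
      have := hρ ψ
      by_cases h : χ = ψ
      · subst h
        rw [repMat_schur, diagonal_apply]
        by_cases h1 : i = k <;> by_cases h2 : j = l <;> simp [h1, h2, hn]
      · rw [cross _ _ (by rw [hχ, hχ]; exact fun h' => h (Subtype.ext h')), diagonal_apply_ne]
        exact fun h' => h (congrArg Sigma.fst h')
    have h2 := congrArg det h1
    rw [det_mul, det_transpose, det_permute', det_permute, det_diagonal, Fintype.prod_sigma] at h2
    simp only [Finset.prod_const, Finset.card_univ, Fintype.card_prod, Fintype.card_fin, ← sq] at h2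
    rw [finprod_eq_prod_of_fintype, ← h2]
    rcases sgn_sq iv with k1 | k1 <;> rcases sgn_sq (sw (n := n)) with k2 | k2 <;> rw [k1, k2]
    · left; ring
    · right; ring
    · right; ring
    · left; ring
  · let π : IrrCharacter G → IrrCharacter G := fun χ => ⟨fun g => σ (χ.1 g), χ.2.gal' σ⟩
    have hπ : ∀ χ, n χ = n (π χ) := fun χ => by
      have : (π χ).1 1 = n χ := by
        show σ (χ.1 1) = _
        rw [hn1, map_natCast]
      rw [hn1] at this
      exact_mod_cast this.symm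
    have hππ : ∀ χ, π (π χ) = χ := fun χ => Subtype.ext (funext (hσ χ))
    let Pf : (Σ χ, Fin (n χ) × Fin (n χ)) → (Σ χ, Fin (n χ) × Fin (n χ)) :=
      fun a => ⟨π a.1, (Fin.cast (hπ a.1) a.2.1, Fin.cast (hπ a.1) a.2.2)⟩
    have hPf : Function.Involutive Pf := fun a => I_ext (hππ a.1) rfl rfl
    let P : Equiv.Perm (Σ χ, Fin (n χ) × Fin (n χ)) := hPf.toPerm
    choose B B' hB hB' using fun χ => conjB (ρ χ) (ρ (π χ)) σ (fun g => by rw [hχ, hχ]) (hπ χ)
    have h1 : D.map σ = L B * ((L fun χ => (B' χ)ᵀ) *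
        (D.submatrix P id).submatrix sw id).submatrix sw id := by
      ext ⟨χ, i, j⟩ b
      have k := congrFun (congrFun (hB' χ (e b)) i) j
      rw [Matrix.mul_assoc, Matrix.mul_apply] at k
      rw [L_mul]
      refine k.trans (Finset.sum_congr rfl fun c _ => ?_)
      congr 1
      show _ = ((L fun χ => (B' χ)ᵀ) * (D.submatrix P id).submatrix sw id) ⟨χ, (j, c)⟩ b
      rw [L_mul, Matrix.mul_apply]
      refine Finset.sum_congr rfl fun l _ => ?_
      rw [mul_comm]; rfl
    have h2 : σ D.det = (D.map σ).det := RingHom.map_det σ.toRingHom D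
    have h3 := L_det B B' hB
    have h4 : σ D.det = ((Equiv.Perm.sign P : ℤ) : ℂ) * D.det := by
      rw [h2, h1, det_mul, det_permute, det_mul, det_permute, det_permute]
      rcases sgn_sq (sw (n := n)) with k2 | k2 <;> rw [k2] <;>
        linear_combination (((Equiv.Perm.sign P : ℤ) : ℂ) * D.det) * h3
    rw [h4, Equiv.Perm.sign_of_pow_two_eq_one (σ := P) (Equiv.ext fun a => hPf a)]
    congr 1
    have h5 : Fintype.card (Σ χ, Fin (n χ) × Fin (n χ)) - Fintype.card (Function.fixedPoints P) =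
        ∑ χ, if π χ = χ then 0 else n χ ^ 2 := by
      rw [← Fintype.card_subtype_compl (fun a => a ∈ Function.fixedPoints P),
        Fintype.card_subtype, Finset.card_filter, Fintype.sum_sigma]
      refine Finset.sum_congr rfl fun χ _ => ?_
      have : ∀ x : Fin (n χ) × Fin (n χ), (⟨χ, x⟩ ∈ Function.fixedPoints P) ↔ π χ = χ :=
        fun x => ⟨fun h => congrArg Sigma.fst h, fun h => I_ext h rfl rfl⟩
      simp only [this]
      split_ifs <;> simp [sq]
    have h6 : Nat.card {χ : IrrCharacter G // ¬ 2 ∣ charDegree χ.1 ∧ ¬ ∀ g, σ (χ.1 g) = χ.1 g} =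
        ∑ χ, if ¬ 2 ∣ n χ ∧ ¬ π χ = χ then 1 else 0 := by
      rw [Nat.card_eq_fintype_card, Fintype.card_subtype, Finset.card_filter]
      refine Finset.sum_congr rfl fun χ _ => ?_
      have : π χ = χ ↔ ∀ g, σ (χ.1 g) = χ.1 g :=
        ⟨fun h g => congrFun (congrArg Subtype.val h) g, fun h => Subtype.ext (funext h)⟩
      simp only [this, hn]
    have h7 : (∑ χ, if π χ = χ then 0 else n χ ^ 2) ≡
        ∑ χ, if ¬ 2 ∣ n χ ∧ ¬ π χ = χ then 1 else 0 [MOD 4] := by
      refine Nat.ModEq.sum fun χ _ => ?_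
      by_cases h : π χ = χ
      · simp [h, Nat.ModEq]
      · obtain ⟨k, hk | hk⟩ := Nat.even_or_odd' (n χ)
        · simp only [h, hk, if_false, dvd_mul_right, not_true, false_and]
          rw [Nat.ModEq, show (2 * k) ^ 2 = 4 * k ^ 2 by ring]; simp
        · have : ¬ 2 ∣ 2 * k + 1 := by omega
          simp only [h, hk, if_false, this, not_false_iff, and_self, if_true]
          rw [Nat.ModEq, show (2 * k + 1) ^ 2 = 1 + 4 * (k ^ 2 + k) by ring]; simp
    rw [h5, h6]
    unfold Nat.ModEq at h7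
    generalize (∑ χ, if π χ = χ then 0 else n χ ^ 2) = a at h7 ⊢
    generalize (∑ χ, if ¬ 2 ∣ n χ ∧ ¬ π χ = χ then 1 else 0) = b at h7 ⊢
    push_cast
    rw [neg_one_pow_eq_pow_mod_two, neg_one_pow_eq_pow_mod_two (n := b / 2),
      show a / 2 % 2 = b / 2 % 2 by omega]

end CL.OD.Gd92
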